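import Mathlib
import Cfsg.Agent.Lib.Helper32.OPG.Defs
import Cfsg.Agent.Lib.Helper76.Siegel.Exist

/-!
# Project OPG (S2414): package [REDY] — row reduction, `y`-part
-/

set_option autoImplicit false
open scoped Matrix

namespace Cfsg.Agent.Lib.Helper42.OPG

open Cfsg.Agent.Lib.Helper31.Siegel Cfsg.Agent.Lib.Helper32.Siegel Cfsg.Agent.Lib.Helper32.OPG

universe u

/-- the action of the root element `Z_{ij}(c)` -/
theorem Z_act {n : ℕ} {F : Type u} [Field F] {i j : Fin n} {c : F} {σ : ↥(Iso n F)}
    (h : IsSiegel (Fv i) (Fv j) c σ) (v : Vec n F) :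
    mat σ *ᵥ v = v + (c * v (Sum.inl j)) • Fv i - (c * v (Sum.inl i)) • Fv j := by
  rw [h v, B_Fv, B_Fv]

/-- the action of the root element `X_{ij}(c)` -/
theorem X_act {n : ℕ} {F : Type u} [Field F] {i j : Fin n} {c : F} {σ : ↥(Iso n F)}
    (h : IsSiegel (E i) (Fv j) c σ) (v : Vec n F) :
    mat σ *ᵥ v = v + (c * v (Sum.inl j)) • E i - (c * v (Sum.inr i)) • Fv j := by
  rw [h v, B_Fv, B_E]

/-- the action of the root element `Y_{ij}(c)` -/
theorem Y_act {n : ℕ} {F : Type u} [Field F] {i j : Fin n} {c : F} {σ : ↥(Iso n F)}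
    (h : IsSiegel (E i) (E j) c σ) (v : Vec n F) :
    mat σ *ᵥ v = v + (c * v (Sum.inr j)) • E i - (c * v (Sum.inr i)) • E j := by
  rw [h v, B_E, B_E]

theorem redY_aux {n : ℕ} {F : Type u} [Field F] (S : Set (Fin n)) (i₀ : Fin n) (hi₀ : i₀ ∈ S)
    (K : Subgroup ↥(Iso n F)) (hZ : HasZ S K) (s : Finset (Fin n)) :
    ∀ p : Vec n F, (∀ i, p (Sum.inl i) = if i = i₀ then 1 else 0) → p (Sum.inr i₀) = 0 →
      (∀ i, i ∉ S → p (Sum.inr i) = 0) → (∀ i, i ∉ s → p (Sum.inr i) = 0) →
      ∃ g ∈ K, mat g *ᵥ p = E i₀ := by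
  classical
  induction s using Finset.induction_on with
  | empty =>
    intro p hx _ _ hy
    refine ⟨1, K.one_mem, ?_⟩
    rw [one_act]
    funext k
    rcases k with i | i
    · rw [hx i]
      by_cases h : i = i₀
      · subst h; simp [E]
      · simp [E, h]
    · rw [hy i (Finset.notMem_empty i)]
      simp [E]
  | insert a s ha ih =>
    intro p hx h0 hS hy
    by_cases ha0 : a = i₀
    · apply ih p hx h0 hS
      intro i hi
      by_cases hia : i = a
      · rw [hia, ha0]; exact h0
      · exact hy i (by simp [hia, hi])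
    · by_cases haS : a ∈ S
      · obtain ⟨σ, hσ⟩ := Cfsg.Agent.Lib.Helper76.Siegel.pkgExist n F (Fv a) (Fv i₀)
          (isSingLine_Fv_Fv ha0) (-(p (Sum.inr a)))
        have hσK : σ ∈ K := hZ a i₀ haS hi₀ ha0 _ σ hσ
        have hact : mat σ *ᵥ p = p - (p (Sum.inr a)) • Fv a := by
          rw [Z_act hσ, hx i₀, hx a, if_pos rfl, if_neg ha0]
          simp only [mul_one, mul_zero, zero_smul, sub_zero, neg_smul]
          rw [sub_eq_add_neg]
        obtain ⟨g, hg, hgp⟩ := ih (mat σ *ᵥ p) (by
            intro i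
            rw [hact]
            simp [Fv, hx i]) (by
            rw [hact]
            simp [Fv, h0, Ne.symm ha0]) (by
            intro i hi
            rw [hact]
            have hia : i ≠ a := fun h => hi (h ▸ haS)
            simp [Fv, hS i hi, hia]) (by
            intro i hi
            rw [hact]
            by_cases hia : i = a
            · subst hia; simp [Fv]
            · simp [Fv, hia, hy i (by simp [hia, hi])])
        exact ⟨g * σ, K.mul_mem hg hσK, by rw [mul_act]; exact hgp⟩
      · apply ih p hx h0 hS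
        intro i hi
        by_cases hia : i = a
        · rw [hia]; exact hS a haS
        · exact hy i (by simp [hia, hi])

/-- [REDY] -/
theorem pkgRedY : PkgRedY.{u} := by
  intro n F _ S i₀ hi₀ K hZ p hQ hx hS
  classical
  have h0 : p (Sum.inr i₀) = 0 := by
    have h1 : QF n F p = p (Sum.inr i₀) := by
      unfold QF Cfsg.quadFormPlus
      rw [Finset.sum_eq_single i₀]
      · rw [hx i₀, if_pos rfl, one_mul]
      · intro k _ hk
        rw [hx k, if_neg hk, zero_mul]
      · intro h
        exact absurd (Finset.mem_univ _) h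
    rw [← h1]
    exact hQ
  exact redY_aux S i₀ hi₀ K hZ Finset.univ p hx h0 hS
    (fun i hi => absurd (Finset.mem_univ i) hi)

end Cfsg.Agent.Lib.Helper42.OPG
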