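import Mathlib
import Cfsg.Agent.Lib.Helper32.OPG.Defs
import Cfsg.Agent.Lib.Helper76.Siegel.Exist
import Cfsg.Agent.Lib.Helper42.OPG.RedY

/-!
# Project OPG (S2414): package [REDX] — row reduction, `x`-part
-/

set_option autoImplicit false
open scoped Matrix

namespace Cfsg.Agent.Lib.Helper42.OPG

open Cfsg.Agent.Lib.Helper31.Siegel Cfsg.Agent.Lib.Helper32.Siegel Cfsg.Agent.Lib.Helper32.OPG

universe u

/-- the vector `v` is supported on the indices of `S` -/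
def SuppIn {n : ℕ} {F : Type u} [Field F] (S : Set (Fin n)) (v : Vec n F) : Prop :=
  ∀ i, i ∉ S → v (Sum.inl i) = 0 ∧ v (Sum.inr i) = 0

theorem exX {n : ℕ} {F : Type u} [Field F] {S : Set (Fin n)} {K : Subgroup ↥(Iso n F)}
    (hX : HasX S K) {i j : Fin n} (hi : i ∈ S) (hj : j ∈ S) (hij : i ≠ j) (c : F) :
    ∃ σ ∈ K, ∀ v : Vec n F,
      mat σ *ᵥ v = v + (c * v (Sum.inl j)) • E i - (c * v (Sum.inr i)) • Fv j := by
  obtain ⟨σ, hσ⟩ := Cfsg.Agent.Lib.Helper76.Siegel.pkgExist n F (E i) (Fv j)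
    (isSingLine_E_Fv hij) c
  exact ⟨σ, hX i j hi hj hij c σ hσ, fun v => X_act hσ v⟩

theorem exY {n : ℕ} {F : Type u} [Field F] {S : Set (Fin n)} {K : Subgroup ↥(Iso n F)}
    (hY : HasY S K) {i j : Fin n} (hi : i ∈ S) (hj : j ∈ S) (hij : i ≠ j) (c : F) :
    ∃ σ ∈ K, ∀ v : Vec n F,
      mat σ *ᵥ v = v + (c * v (Sum.inr j)) • E i - (c * v (Sum.inr i)) • E j := by
  obtain ⟨σ, hσ⟩ := Cfsg.Agent.Lib.Helper76.Siegel.pkgExist n F (E i) (E j)
    (isSingLine_E_E hij) c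
  exact ⟨σ, hY i j hi hj hij c σ hσ, fun v => Y_act hσ v⟩

theorem suppIn_X {n : ℕ} {F : Type u} [Field F] {S : Set (Fin n)} {v : Vec n F}
    (hv : SuppIn S v) {i j : Fin n} (hi : i ∈ S) (hj : j ∈ S) (a b : F) :
    SuppIn S (v + a • E i - b • Fv j) := by
  intro k hk
  have hki : k ≠ i := fun h => hk (h ▸ hi)
  have hkj : k ≠ j := fun h => hk (h ▸ hj)
  obtain ⟨h1, h2⟩ := hv k hk
  constructor
  · simp [E, Fv, h1, hki]
  · simp [E, Fv, h2, hkj]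

theorem suppIn_Y {n : ℕ} {F : Type u} [Field F] {S : Set (Fin n)} {v : Vec n F}
    (hv : SuppIn S v) {i j : Fin n} (hi : i ∈ S) (hj : j ∈ S) (a b : F) :
    SuppIn S (v + a • E i - b • E j) := by
  intro k hk
  have hki : k ≠ i := fun h => hk (h ▸ hi)
  have hkj : k ≠ j := fun h => hk (h ▸ hj)
  obtain ⟨h1, h2⟩ := hv k hk
  constructor
  · simp [E, h1, hki, hkj]
  · simp [E, h2]

theorem redX1 {n : ℕ} {F : Type u} [Field F] {S : Set (Fin n)} {K : Subgroup ↥(Iso n F)}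
    (hY : HasY S K) {i₀ j₀ : Fin n} (hi₀ : i₀ ∈ S) (hj₀ : j₀ ∈ S) (h0 : i₀ ≠ j₀)
    (p : Vec n F) (hp : p ≠ 0) (hS : SuppIn S p) :
    ∃ g ∈ K, SuppIn S (mat g *ᵥ p) ∧ ∃ j, (mat g *ᵥ p) (Sum.inl j) ≠ 0 := by
  by_cases hx : ∃ j, p (Sum.inl j) ≠ 0
  · exact ⟨1, K.one_mem, by rw [one_act]; exact hS, by rw [one_act]; exact hx⟩
  · push Not at hx
    have hy : ∃ j, p (Sum.inr j) ≠ 0 := by
      by_contra hy
      push Not at hy
      apply hp
      funext k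
      rcases k with i | i
      · exact hx i
      · exact hy i
    obtain ⟨j, hj⟩ := hy
    have hjS : j ∈ S := by
      by_contra h
      exact hj (hS j h).2
    obtain ⟨i, hiS, hij⟩ : ∃ i ∈ S, i ≠ j := by
      by_cases h : j = i₀
      · exact ⟨j₀, hj₀, fun h' => h0 (h.symm.trans h'.symm)⟩
      · exact ⟨i₀, hi₀, fun h' => h h'.symm⟩
    obtain ⟨σ, hσK, hσ⟩ := exY hY hiS hjS hij 1
    refine ⟨σ, hσK, ?_, i, ?_⟩
    · rw [hσ]
      exact suppIn_Y hS hiS hjS _ _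
    · rw [hσ]
      simp [E, hx, hij, hj]

theorem redX2 {n : ℕ} {F : Type u} [Field F] {S : Set (Fin n)} {K : Subgroup ↥(Iso n F)}
    (hX : HasX S K) {i₀ j₀ : Fin n} (hi₀ : i₀ ∈ S) (hj₀ : j₀ ∈ S) (h0 : i₀ ≠ j₀)
    (v : Vec n F) (hS : SuppIn S v) (hx : ∃ j, v (Sum.inl j) ≠ 0) :
    ∃ g ∈ K, SuppIn S (mat g *ᵥ v) ∧ ∃ j, j ≠ i₀ ∧ (mat g *ᵥ v) (Sum.inl j) ≠ 0 := by
  by_cases h : ∃ j, j ≠ i₀ ∧ v (Sum.inl j) ≠ 0
  · exact ⟨1, K.one_mem, by rw [one_act]; exact hS, by rw [one_act]; exact h⟩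
  · push Not at h
    obtain ⟨j, hj⟩ := hx
    have hji : j = i₀ := by
      by_contra hne
      exact hj (h j hne)
    rw [hji] at hj
    obtain ⟨σ, hσK, hσ⟩ := exX hX hj₀ hi₀ (Ne.symm h0) 1
    refine ⟨σ, hσK, ?_, j₀, Ne.symm h0, ?_⟩
    · rw [hσ]
      exact suppIn_X hS hj₀ hi₀ _ _
    · rw [hσ]
      simp [E, Fv, h j₀ (Ne.symm h0), hj]

theorem redX3 {n : ℕ} {F : Type u} [Field F] {S : Set (Fin n)} {K : Subgroup ↥(Iso n F)}
    (hX : HasX S K) {i₀ : Fin n} (hi₀ : i₀ ∈ S)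
    (v : Vec n F) (hS : SuppIn S v) (hx : ∃ j, j ≠ i₀ ∧ v (Sum.inl j) ≠ 0) :
    ∃ g ∈ K, SuppIn S (mat g *ᵥ v) ∧ (mat g *ᵥ v) (Sum.inl i₀) = 1 := by
  obtain ⟨j, hji, hj⟩ := hx
  have hjS : j ∈ S := by
    by_contra h
    exact hj (hS j h).1
  obtain ⟨σ, hσK, hσ⟩ := exX hX hi₀ hjS (Ne.symm hji) ((1 - v (Sum.inl i₀)) / v (Sum.inl j))
  refine ⟨σ, hσK, ?_, ?_⟩
  · rw [hσ]
    exact suppIn_X hS hi₀ hjS _ _
  · rw [hσ]
    simp only [E, Fv, Pi.add_apply, Pi.sub_apply, Pi.smul_apply, Pi.single_eq_same, smul_eq_mul,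
      mul_one]
    rw [Pi.single_eq_of_ne (by simp), mul_zero, sub_zero, div_mul_cancel₀ _ hj]
    ring

theorem redX4 {n : ℕ} {F : Type u} [Field F] {S : Set (Fin n)} {K : Subgroup ↥(Iso n F)}
    (hX : HasX S K) {i₀ : Fin n} (hi₀ : i₀ ∈ S) (s : Finset (Fin n)) :
    ∀ v : Vec n F, SuppIn S v → v (Sum.inl i₀) = 1 →
      (∀ i, i ∉ s → i ≠ i₀ → v (Sum.inl i) = 0) →
      ∃ g ∈ K, (∀ i, (mat g *ᵥ v) (Sum.inl i) = if i = i₀ then 1 else 0) ∧
        (∀ i, i ∉ S → (mat g *ᵥ v) (Sum.inr i) = 0) := by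
  classical
  induction s using Finset.induction_on with
  | empty =>
    intro v hS h1 hz
    refine ⟨1, K.one_mem, ?_, ?_⟩
    · intro i
      rw [one_act]
      by_cases h : i = i₀
      · rw [if_pos h, h]
        exact h1
      · rw [if_neg h]
        exact hz i (Finset.notMem_empty i) h
    · intro i hi
      rw [one_act]
      exact (hS i hi).2
  | insert a s ha ih =>
    intro v hS h1 hz
    by_cases hcase : a = i₀ ∨ a ∉ S
    · apply ih v hS h1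
      intro i hi hne
      by_cases hia : i = a
      · rcases hcase with h | h
        · exact absurd (hia.trans h) hne
        · rw [hia]
          exact (hS a h).1
      · exact hz i (by simp [hia, hi]) hne
    · push Not at hcase
      obtain ⟨ha0, haS⟩ := hcase
      obtain ⟨σ, hσK, hσ⟩ := exX hX haS hi₀ ha0 (-(v (Sum.inl a)))
      obtain ⟨g, hg, hg1, hg2⟩ := ih (mat σ *ᵥ v) (by
          rw [hσ]
          exact suppIn_X hS haS hi₀ _ _) (by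
          rw [hσ]
          simp [E, Fv, h1, Ne.symm ha0]) (by
          intro i hi hne
          rw [hσ]
          by_cases hia : i = a
          · subst hia
            simp [E, Fv, h1]
          · simp [E, Fv, hia, hz i (by simp [hia, hi]) hne])
      exact ⟨g * σ, K.mul_mem hg hσK, by intro i; rw [mul_act]; exact hg1 i,
        by intro i hi; rw [mul_act]; exact hg2 i hi⟩

/-- [REDX] -/
theorem pkgRedX : PkgRedX.{u} := by
  intro n F _ S i₀ j₀ hi₀ hj₀ h0 K hX hY p hp hS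
  obtain ⟨g1, hg1, hS1, hx1⟩ := redX1 hY hi₀ hj₀ h0 p hp hS
  obtain ⟨g2, hg2, hS2, hx2⟩ := redX2 hX hi₀ hj₀ h0 _ hS1 hx1
  obtain ⟨g3, hg3, hS3, hx3⟩ := redX3 hX hi₀ _ hS2 hx2
  obtain ⟨g4, hg4, h41, h42⟩ := redX4 hX hi₀ Finset.univ _ hS3 hx3
    (fun i hi => absurd (Finset.mem_univ i) hi)
  refine ⟨g4 * (g3 * (g2 * g1)), K.mul_mem hg4 (K.mul_mem hg3 (K.mul_mem hg2 hg1)), ?_, ?_⟩
  · intro i
    rw [mul_act, mul_act, mul_act]
    exact h41 i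
  · intro i hi
    rw [mul_act, mul_act, mul_act]
    exact h42 i hi

end Cfsg.Agent.Lib.Helper42.OPG
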