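import Mathlib
import Cfsg.Agent.Lib.Helper32.OPG.Defs
import Cfsg.Agent.Lib.Helper40.SLTwoGen2

/-!
# Two generators of `SL_{N+1}(F)`, `N ≥ 1`, the first one supported on the top left block

(variant of the OPG package [GENS] without the restriction `3 ≤ N` and without the mixing matrix)
-/

set_option autoImplicit false
open scoped Matrix

namespace Cfsg.Agent.Lib.Helper42.OPG

open Cfsg.Agent.Lib.Helper40.SLTwoGen Matrix

universe u

theorem cox_eq_diag_mul_perm' (n : ℕ) (K : Type u) [Field K] :
    cox n K = Matrix.diagonal (eta n K) * (finRotate (n + 1)).permMatrix K := by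
  ext i j
  rw [Matrix.diagonal_mul, cox_apply]
  show _ = eta n K i * (finRotate (n + 1)).toPEquiv.toMatrix i j
  rw [PEquiv.toMatrix_apply, Equiv.toPEquiv_apply, finRotate_apply]
  simp only [Option.mem_def, Option.some.injEq]
  by_cases h : j = i + 1
  · rw [if_pos h, if_pos h.symm, mul_one]
  · rw [if_neg h, if_neg (fun h' => h h'.symm), mul_zero]

theorem det_cox' (n : ℕ) (K : Type u) [Field K] : (cox n K).det = 1 := by
  rw [cox_eq_diag_mul_perm', Matrix.det_mul, Matrix.det_diagonal, Matrix.det_permutation,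
    sign_finRotate]
  have h1 : ∏ i, eta n K i = (-1) ^ n := by
    rw [Finset.prod_eq_single (Fin.last n)]
    · simp [eta]
    · intro b _ hb
      unfold eta
      rw [if_neg]
      intro h
      exact hb (Fin.ext (by simpa using h))
    · intro h
      exact absurd (Finset.mem_univ _) h
  rw [h1]
  simp [← mul_pow]

/-- the monomial matrix `cox` as an element of `SL` -/
def coxSL' (n : ℕ) (K : Type u) [Field K] : SpecialLinearGroup (Fin (n + 1)) K :=
  ⟨cox n K, det_cox' n K⟩

theorem std_transvection' {N : ℕ} {F : Type u} [Field F] (h01 : (0 : Fin (N + 1)) ≠ 1)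
    (hv1 : (1 : Fin (N + 1)).val = 1) (i : Fin (N + 1)) (hi : 2 ≤ i.val) :
    (∀ j, (SpecialLinearGroup.transvection h01 (1 : F) : Matrix (Fin (N + 1)) (Fin (N + 1)) F) i j
        = (1 : Matrix (Fin (N + 1)) (Fin (N + 1)) F) i j) ∧
    (∀ j, (SpecialLinearGroup.transvection h01 (1 : F) : Matrix (Fin (N + 1)) (Fin (N + 1)) F) j i
        = (1 : Matrix (Fin (N + 1)) (Fin (N + 1)) F) j i) := by
  have hi0 : (0 : Fin (N + 1)) ≠ i := by
    intro h
    rw [← h] at hi
    simp at hi
  have hi1 : (1 : Fin (N + 1)) ≠ i := by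
    intro h
    rw [← h, hv1] at hi
    omega
  constructor
  · intro j
    rw [SpecialLinearGroup.transvection_coe, Matrix.add_apply, Matrix.single_apply,
      if_neg (fun h => hi0 h.1), add_zero]
  · intro j
    rw [SpecialLinearGroup.transvection_coe, Matrix.add_apply, Matrix.single_apply,
      if_neg (fun h => hi1 h.2), add_zero]

/-- two generators of `SL_{N+1}(F)`: `g₁` is supported on the top left `2 × 2` block and has
order dividing `A`, where `A = |F| - 1` or `A = |F|`. -/
theorem gensSL (F : Type u) [Field F] [Fintype F] (N : ℕ) (hN : 1 ≤ N) :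
    ∃ (g₁ g₂ : SpecialLinearGroup (Fin (N + 1)) F) (A : ℕ),
      (A = Fintype.card F - 1 ∨ A = Fintype.card F) ∧
      Subgroup.closure ({g₁, g₂} : Set (SpecialLinearGroup (Fin (N + 1)) F)) = ⊤ ∧
      g₁ ^ A = 1 ∧
      ∀ i : Fin (N + 1), 2 ≤ i.val →
        (∀ j, (g₁ : Matrix (Fin (N + 1)) (Fin (N + 1)) F) i j =
          (1 : Matrix (Fin (N + 1)) (Fin (N + 1)) F) i j) ∧
        (∀ j, (g₁ : Matrix (Fin (N + 1)) (Fin (N + 1)) F) j i =
          (1 : Matrix (Fin (N + 1)) (Fin (N + 1)) F) j i) := by
  classical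
  have h01 : (0 : Fin (N + 1)) ≠ 1 := (one_ne_zero_fin hN).symm
  have hv0 : (0 : Fin (N + 1)).val = 0 := rfl
  have hv1 : (1 : Fin (N + 1)).val = 1 := by
    rw [Fin.val_one', Nat.mod_eq_of_lt (by omega)]
  have hq0 : ((Fintype.card F : ℕ) : F) = 0 := FiniteField.cast_card_eq_zero F
  by_cases hK : 3 < Fintype.card F
  · -- large fields
    obtain ⟨k, hk⟩ := IsCyclic.exists_generator (α := Fˣ)
    have hdet : (Matrix.diagonal (fun i : Fin (N + 1) => if i.val = 0 then (k : F)
        else if i.val = 1 then ((k⁻¹ : Fˣ) : F) else 1)).det = 1 := by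
      rw [Matrix.det_diagonal, Finset.prod_eq_mul_of_mem (0 : Fin (N + 1)) 1 (Finset.mem_univ _)
        (Finset.mem_univ _) h01]
      · rw [if_pos hv0, if_neg (by rw [hv1]; exact one_ne_zero), if_pos hv1]
        exact Units.mul_inv k
      · intro c _ hc
        have h0 : c.val ≠ 0 := fun h => hc.1 (Fin.ext h)
        have h1 : c.val ≠ 1 := fun h => hc.2 (Fin.ext (by rw [h, hv1]))
        rw [if_neg h0, if_neg h1]
    obtain ⟨h, hh⟩ : ∃ h : SpecialLinearGroup (Fin (N + 1)) F,
        (h : Matrix (Fin (N + 1)) (Fin (N + 1)) F) =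
          Matrix.diagonal (fun i : Fin (N + 1) => if i.val = 0 then (k : F)
            else if i.val = 1 then ((k⁻¹ : Fˣ) : F) else 1) := ⟨⟨_, hdet⟩, rfl⟩
    refine ⟨h, SpecialLinearGroup.transvection h01 1 * coxSL' N F,
      Fintype.card F - 1, Or.inl rfl, ?_, ?_, ?_⟩
    · exact closure_eq_top_of_torus hK hN k hk h _ (coxSL' N F) hh rfl rfl
    · have key : ((h ^ (Fintype.card F - 1) : SpecialLinearGroup (Fin (N + 1)) F) :
          Matrix (Fin (N + 1)) (Fin (N + 1)) F) =
          ((1 : SpecialLinearGroup (Fin (N + 1)) F) : Matrix (Fin (N + 1)) (Fin (N + 1)) F) := ?_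
      · exact Subtype.ext key
      rw [Matrix.SpecialLinearGroup.coe_pow, Matrix.SpecialLinearGroup.coe_one, hh,
        Matrix.diagonal_pow, ← Matrix.diagonal_one]
      congr 1
      funext i
      simp only [Pi.pow_apply]
      apply FiniteField.pow_card_sub_one_eq_one
      split_ifs
      · exact k.ne_zero
      · exact (k⁻¹).ne_zero
      · exact one_ne_zero
    · intro i hi
      have hi0 : i.val ≠ 0 := by omega
      have hi1 : i.val ≠ 1 := by omega
      rw [hh]
      constructor
      · intro j
        rw [Matrix.diagonal_apply, Matrix.one_apply, if_neg hi0, if_neg hi1]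
      · intro j
        rw [Matrix.diagonal_apply, Matrix.one_apply]
        by_cases hji : j = i
        · rw [if_pos hji, if_pos hji, hji, if_neg hi0, if_neg hi1]
        · rw [if_neg hji, if_neg hji]
  · -- small fields
    have hK' : Fintype.card F ≤ 3 := by omega
    have hcl : Subgroup.closure ({SpecialLinearGroup.transvection h01 1, coxSL' N F} :
        Set (SpecialLinearGroup (Fin (N + 1)) F)) = ⊤ := by
      apply eq_top_of_cox_of_root hN _ (coxSL' N F) rfl (Subgroup.subset_closure (by simp))
      intro h01' c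
      obtain ⟨m, rfl⟩ := exists_natCast_of_card_le_three hK' c
      rw [transvection_natCast_eq_pow]
      exact Subgroup.pow_mem _ (Subgroup.subset_closure (by simp)) m
    have hxq : (SpecialLinearGroup.transvection h01 (1 : F)) ^ (Fintype.card F) = 1 := by
      rw [← transvection_natCast_eq_pow, hq0, SpecialLinearGroup.transvection_coeff_zero]
    exact ⟨SpecialLinearGroup.transvection h01 1, coxSL' N F, Fintype.card F, Or.inr rfl,
      hcl, hxq, std_transvection' h01 hv1⟩

end Cfsg.Agent.Lib.Helper42.OPG
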